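import Mathlib

/-!
Bit masks for finite sets: a finite set in a type with an injective numbering is coded by a natural number.
-/

set_option autoImplicit false

namespace CfsgLib.TGolay

variable {α : Type*}

/-- The number whose binary digits mark the members of `s`. -/
def toMask (e : α → ℕ) (s : Finset α) : ℕ := ∑ a ∈ s, 2 ^ e a

/-- The set of points whose digit is set in `m`. -/
def ofMask [Fintype α] (e : α → ℕ) (m : ℕ) : Finset α :=
  Finset.univ.filter fun a => m.testBit (e a) = true

theorem mem_ofMask [Fintype α] (e : α → ℕ) (m : ℕ) (a : α) :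
    a ∈ ofMask e m ↔ m.testBit (e a) = true := by
  simp [ofMask]

theorem testBit_sum_two_pow (s : Finset ℕ) (i : ℕ) :
    (∑ j ∈ s, 2 ^ j).testBit i = true ↔ i ∈ s := by
  have h : (∑ j ∈ s, 2 ^ j) = Finset.equivBitIndices.symm s := by
    simp [Finset.equivBitIndices]
  rw [h]
  have h2 : ∀ n : ℕ, n.testBit i = true ↔ i ∈ Finset.equivBitIndices n := by
    intro n
    simp [Finset.equivBitIndices]
  rw [h2, Equiv.apply_symm_apply]

theorem toMask_eq_image {e : α → ℕ} (he : Function.Injective e) (s : Finset α) :
    toMask e s = ∑ j ∈ s.image e, 2 ^ j := by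
  rw [toMask, Finset.sum_image (fun a _ b _ h => he h)]

theorem testBit_toMask {e : α → ℕ} (he : Function.Injective e) (s : Finset α) (a : α) :
    (toMask e s).testBit (e a) = true ↔ a ∈ s := by
  rw [toMask_eq_image he, testBit_sum_two_pow, Finset.mem_image]
  constructor
  · rintro ⟨b, hb, h⟩; rwa [← he h]
  · intro h; exact ⟨a, h, rfl⟩

theorem ofMask_toMask [Fintype α] {e : α → ℕ} (he : Function.Injective e) (s : Finset α) :
    ofMask e (toMask e s) = s := by
  ext a; rw [mem_ofMask, testBit_toMask he]

theorem toMask_injective {e : α → ℕ} (he : Function.Injective e) :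
    Function.Injective (toMask e) := by
  intro s t h
  ext a
  rw [← testBit_toMask he, h, testBit_toMask he]

theorem toMask_lt {e : α → ℕ} (he : Function.Injective e) {n : ℕ} (hn : ∀ a, e a < n)
    (s : Finset α) : toMask e s < 2 ^ n := by
  apply Nat.lt_pow_two_of_testBit
  intro i hi
  rw [toMask_eq_image he]
  by_contra h
  have := (testBit_sum_two_pow _ _).mp (by simpa using h)
  obtain ⟨a, _, rfl⟩ := Finset.mem_image.mp this
  exact absurd (hn a) (not_lt.mpr hi)

theorem ofMask_subset_of_land [Fintype α] (e : α → ℕ) {m h : ℕ} (hm : m &&& h = m) :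
    ofMask e m ⊆ ofMask e h := by
  intro a ha
  rw [mem_ofMask] at ha ⊢
  rw [← hm, Nat.testBit_and] at ha
  simp only [Bool.and_eq_true] at ha
  exact ha.2

theorem toMask_land_of_subset {e : α → ℕ} (he : Function.Injective e) {s t : Finset α}
    (h : s ⊆ t) : toMask e s &&& toMask e t = toMask e s := by
  apply Nat.eq_of_testBit_eq
  intro i
  rw [Nat.testBit_and]
  cases h1 : (toMask e s).testBit i
  · simp
  · rw [toMask_eq_image he, testBit_sum_two_pow] at h1
    obtain ⟨a, ha, rfl⟩ := Finset.mem_image.mp h1
    simpa using (testBit_toMask he t a).mpr (h ha)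

/-- To prove a property of all finite sets, prove it for the sets coded by small numbers. -/
theorem forall_of_forall_mask [Fintype α] {e : α → ℕ} (he : Function.Injective e) {n : ℕ}
    (hn : ∀ a, e a < n) {P : Finset α → Prop} (h : ∀ m < 2 ^ n, P (ofMask e m)) (s : Finset α) :
    P s := by
  rw [← ofMask_toMask he s]
  exact h _ (toMask_lt he hn s)

/-- Check `p` on the `2 ^ k` numbers from `b * 2 ^ k` on, by halving. -/
def allPow (p : ℕ → Bool) (k : ℕ) : ℕ → Bool :=
  Nat.rec (motive := fun _ => ℕ → Bool) (fun b => p b)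
    (fun _ ih b => ih (2 * b) && ih (2 * b + 1)) k

theorem allPow_sound {p : ℕ → Bool} : ∀ (k b : ℕ), allPow p k b = true →
    ∀ m < 2 ^ k, p (b * 2 ^ k + m) = true := by
  intro k
  induction k with
  | zero =>
    intro b h m hm
    have : m = 0 := by simpa using hm
    subst this
    simpa [allPow] using h
  | succ k ih =>
    intro b h m hm
    have h' : (allPow p k (2 * b) && allPow p k (2 * b + 1)) = true := h
    rw [Bool.and_eq_true] at h'
    by_cases hk : m < 2 ^ k
    · have := ih _ h'.1 m hk
      rwa [show b * 2 ^ (k + 1) + m = 2 * b * 2 ^ k + m by ring]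
    · have := ih _ h'.2 (m - 2 ^ k) (by rw [pow_succ] at hm; omega)
      rwa [show b * 2 ^ (k + 1) + m = (2 * b + 1) * 2 ^ k + (m - 2 ^ k) by
        rw [pow_succ, add_mul, one_mul, add_assoc, Nat.add_sub_cancel' (not_lt.mp hk)]; ring]

theorem forall_lt_pow_of_allPow {P : ℕ → Prop} [DecidablePred P] (k : ℕ)
    (h : allPow (fun m => decide (P m)) k 0 = true) : ∀ m < 2 ^ k, P m := by
  intro m hm
  simpa using allPow_sound k 0 h m hm

end CfsgLib.TGolay
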