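import Mathlib
import Cfsg.Prelude.Def_SporadicCombinatorics
import Cfsg.Agent.Lib.TGolay.Mask

/-!
The ternary code of length 12 on the 4 x 3 array: parametrisation, weights, hexads.
-/

set_option autoImplicit false

namespace CfsgLib.TGolay

open Cfsg

/-- Six free coordinates. -/
abbrev Msg : Type := ZMod 3 × ZMod 3 × ZMod 3 × ZMod 3 × ZMod 3 × ZMod 3

/-- Numbering of the twelve positions. -/
def idx (p : ArrayPt) : ℕ := 3 * p.1.val + p.2.val

theorem idx_injective : Function.Injective idx := by decide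

theorem idx_lt (p : ArrayPt) : idx p < 12 := by revert p; decide

/-- The code word with the given entries at the positions 0, 1, 2, 3, 4, 6. -/
def enc6 (a b c d e f : ZMod 3) (p : ArrayPt) : ZMod 3 :=
  match idx p with
  | 0 => a
  | 1 => b
  | 2 => c
  | 3 => d
  | 4 => e
  | 5 => a + b + c + 2 * d + 2 * e
  | 6 => f
  | 7 => 2 * b + c + 2 * d + e + f
  | 8 => a + 2 * b + d + 2 * e + f
  | 9 => a + 2 * b + 2 * c + 2 * d + 2 * f
  | 10 => a + c + d + e + 2 * f
  | _ => 2 * a + 2 * b + c + 2 * e + 2 * f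

/-- The code word with the given message. -/
def enc (t : Msg) : ArrayPt → ZMod 3 :=
  enc6 t.1 t.2.1 t.2.2.1 t.2.2.2.1 t.2.2.2.2.1 t.2.2.2.2.2

/-- The message of a word. -/
def dec (x : ArrayPt → ZMod 3) : Msg :=
  (x (0, 0), x (0, 1), x (0, 2), x (1, 0), x (1, 1), x (2, 0))

theorem dec_enc (t : Msg) : dec (enc t) = t := rfl

theorem enc_injective : Function.Injective enc :=
  Function.LeftInverse.injective dec_enc

theorem mem_tetracode (t : Fin 4 → ZMod 3) :
    t ∈ tetracode ↔ ∃ a b : ZMod 3, t = ![b, a, a + b, a + 2 * b] := by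
  rw [tetracode, Submodule.mem_span_pair]
  refine exists_congr fun a => exists_congr fun b => ?_
  have : a • (![0, 1, 1, 1] : Fin 4 → ZMod 3) + b • ![1, 0, 1, 2] = ![b, a, a + b, a + 2 * b] := by
    ext i; fin_cases i <;> simp [mul_comm]
  rw [this, eq_comm]

theorem sum_zmod3 (f : ZMod 3 → ZMod 3) : ∑ r, f r = f 0 + f 1 + f 2 :=
  Fin.sum_univ_three f

theorem mem_code_iff' (x : ArrayPt → ZMod 3) : x ∈ ternaryGolayCode ↔
    ∃ s : ZMod 3, (∀ i : Fin 4, x (i, 0) + x (i, 1) + x (i, 2) = -s) ∧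
      ∀ a b : ZMod 3, x (0, b) + x (1, a) + x (2, a + b) + x (3, a + 2 * b) = s := by
  change IsTernaryGolayWord x ↔ _
  unfold IsTernaryGolayWord
  refine exists_congr fun s => and_congr (forall_congr' fun i => by rw [sum_zmod3]) ?_
  constructor
  · intro h a b
    have := h _ ((mem_tetracode _).mpr ⟨a, b, rfl⟩)
    rw [Fin.sum_univ_four] at this
    exact this
  · intro h t ht
    obtain ⟨a, b, rfl⟩ := (mem_tetracode _).mp ht
    rw [Fin.sum_univ_four]
    exact h a b

/-- The six basis words. -/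
def bas (j : Fin 6) : ArrayPt → ZMod 3 :=
  enc (![(1, 0, 0, 0, 0, 0), (0, 1, 0, 0, 0, 0), (0, 0, 1, 0, 0, 0), (0, 0, 0, 1, 0, 0),
    (0, 0, 0, 0, 1, 0), (0, 0, 0, 0, 0, 1)] j)

theorem enc_eq_sum (a b c d e f : ZMod 3) : enc (a, b, c, d, e, f) =
    a • bas 0 + b • bas 1 + c • bas 2 + d • bas 3 + e • bas 4 + f • bas 5 := by
  funext ⟨i, r⟩
  fin_cases i <;> fin_cases r <;> simp [bas, enc, enc6, idx, ZMod.val] <;> ring

theorem bas_mem (j : Fin 6) : bas j ∈ ternaryGolayCode := by
  rw [mem_code_iff']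
  revert j
  decide +kernel

theorem enc_mem (t : Msg) : enc t ∈ ternaryGolayCode := by
  obtain ⟨a, b, c, d, e, f⟩ := t
  rw [enc_eq_sum]
  refine add_mem (add_mem (add_mem (add_mem (add_mem ?_ ?_) ?_) ?_) ?_) ?_ <;>
    exact Submodule.smul_mem _ _ (bas_mem _)

theorem enc_dec {x : ArrayPt → ZMod 3} (hx : x ∈ ternaryGolayCode) : enc (dec x) = x := by
  obtain ⟨s, h1, h2⟩ := (mem_code_iff' x).mp hx
  have c0 := h1 0
  have c1 := h1 1
  have c2 := h1 2
  have c3 := h1 3
  have t00 : x (0, 0) + x (1, 0) + x (2, 0) + x (3, 0) = s := h2 0 0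
  have t01 : x (0, 1) + x (1, 0) + x (2, 1) + x (3, 2) = s := h2 0 1
  have t02 : x (0, 2) + x (1, 0) + x (2, 2) + x (3, 1) = s := h2 0 2
  have t10 : x (0, 0) + x (1, 1) + x (2, 1) + x (3, 1) = s := h2 1 0
  have t11 : x (0, 1) + x (1, 1) + x (2, 2) + x (3, 0) = s := h2 1 1
  have t12 : x (0, 2) + x (1, 1) + x (2, 0) + x (3, 2) = s := h2 1 2
  have e5 : x (0, 0) + x (0, 1) + x (0, 2) + 2 * x (1, 0) + 2 * x (1, 1) = x (1, 2) := by grind
  have e7 : 2 * x (0, 1) + x (0, 2) + 2 * x (1, 0) + x (1, 1) + x (2, 0) = x (2, 1) := by grind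
  have e8 : x (0, 0) + 2 * x (0, 1) + x (1, 0) + 2 * x (1, 1) + x (2, 0) = x (2, 2) := by grind
  have e9 : x (0, 0) + 2 * x (0, 1) + 2 * x (0, 2) + 2 * x (1, 0) + 2 * x (2, 0) = x (3, 0) := by
    grind
  have e10 : x (0, 0) + x (0, 2) + x (1, 0) + x (1, 1) + 2 * x (2, 0) = x (3, 1) := by grind
  have e11 : 2 * x (0, 0) + 2 * x (0, 1) + x (0, 2) + 2 * x (1, 1) + 2 * x (2, 0) = x (3, 2) := by
    grind
  funext ⟨i, r⟩
  fin_cases i <;> fin_cases r
  exacts [rfl, rfl, rfl, rfl, rfl, e5, rfl, e7, e8, e9, e10, e11]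

theorem mem_code_iff (x : ArrayPt → ZMod 3) : x ∈ ternaryGolayCode ↔ ∃ t, enc t = x :=
  ⟨fun h => ⟨_, enc_dec h⟩, by rintro ⟨t, rfl⟩; exact enc_mem t⟩

theorem card_code : Nat.card ternaryGolayCode = 729 := by
  have : ternaryGolayCode ≃ Msg :=
    { toFun := fun x => dec x
      invFun := fun t => ⟨enc t, enc_mem t⟩
      left_inv := fun x => Subtype.ext (enc_dec x.2)
      right_inv := dec_enc }
  rw [Nat.card_congr this]
  simp [Msg]

theorem ncard_weight (k : ℕ) :
    {x : ArrayPt → ZMod 3 | x ∈ ternaryGolayCode ∧ (ternarySupport x).card = k}.ncard =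
      (Finset.univ.filter fun t : Msg => (ternarySupport (enc t)).card = k).card := by
  rw [← Set.ncard_coe_finset, ← Set.ncard_image_of_injective _ enc_injective]
  congr 1
  ext x
  simp only [Set.mem_ofPred_eq, mem_code_iff, Finset.coe_filter, Finset.mem_univ, true_and,
    Set.mem_image]
  constructor
  · rintro ⟨⟨t, rfl⟩, h⟩; exact ⟨t, h, rfl⟩
  · rintro ⟨t, h, rfl⟩; exact ⟨⟨t, rfl⟩, h⟩

theorem weights_enc : ∀ t : Msg, t = 0 ∨ (ternarySupport (enc t)).card = 6 ∨
    (ternarySupport (enc t)).card = 9 ∨ (ternarySupport (enc t)).card = 12 := by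
  decide +kernel

theorem enc_zero : enc 0 = 0 := by decide

theorem weights {x : ArrayPt → ZMod 3} (hx : x ∈ ternaryGolayCode) (h0 : x ≠ 0) :
    (ternarySupport x).card = 6 ∨ (ternarySupport x).card = 9 ∨ (ternarySupport x).card = 12 := by
  obtain ⟨t, rfl⟩ := (mem_code_iff x).mp hx
  refine (weights_enc t).resolve_left ?_
  rintro rfl
  exact h0 enc_zero

theorem count6 : (Finset.univ.filter fun t : Msg => (ternarySupport (enc t)).card = 6).card = 264 := by
  decide +kernel

theorem count9 : (Finset.univ.filter fun t : Msg => (ternarySupport (enc t)).card = 9).card = 440 := by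
  decide +kernel

theorem count12 :
    (Finset.univ.filter fun t : Msg => (ternarySupport (enc t)).card = 12).card = 24 := by
  decide +kernel

theorem dot_enc (t u : Msg) : ∑ p, enc t p * enc u p = 0 := by
  obtain ⟨a, b, c, d, e, f⟩ := t
  obtain ⟨a', b', c', d', e', f'⟩ := u
  rw [Fintype.sum_prod_type, Fin.sum_univ_four, sum_zmod3, sum_zmod3, sum_zmod3, sum_zmod3]
  change a * a' + b * b' + c * c' + (d * d' + e * e' +
    (a + b + c + 2 * d + 2 * e) * (a' + b' + c' + 2 * d' + 2 * e')) +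
    (f * f' + (2 * b + c + 2 * d + e + f) * (2 * b' + c' + 2 * d' + e' + f') +
      (a + 2 * b + d + 2 * e + f) * (a' + 2 * b' + d' + 2 * e' + f')) +
    ((a + 2 * b + 2 * c + 2 * d + 2 * f) * (a' + 2 * b' + 2 * c' + 2 * d' + 2 * f') +
      (a + c + d + e + 2 * f) * (a' + c' + d' + e' + 2 * f') +
      (2 * a + 2 * b + c + 2 * e + 2 * f) * (2 * a' + 2 * b' + c' + 2 * e' + 2 * f')) = 0
  ring_nf
  reduce_mod_char

/-- The hexads: supports of the words of weight 6. -/
def hexads : Set (Finset ArrayPt) :=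
  {h : Finset ArrayPt | ∃ x ∈ ternaryGolayCode, ternarySupport x = h ∧ h.card = 6}

/-- The masks of the 132 hexads. -/
def hexList : List ℕ := [63, 222, 237, 243, 347, 366, 373, 413, 427, 438, 455, 504, 591, 630, 633, 667, 679, 700, 725, 746, 791, 813, 826, 860, 867, 910, 945, 969, 978, 996, 1117, 1127, 1146, 1175, 1198, 1209, 1227, 1268, 1295, 1331, 1340, 1366, 1385, 1434, 1445, 1484, 1489, 1506, 1566, 1579, 1589, 1619, 1644, 1677, 1714, 1734, 1752, 1761, 1817, 1830, 1861, 1866, 1904, 1923, 1940, 1960, 2135, 2155, 2172, 2191, 2229, 2234, 2265, 2278, 2334, 2343, 2361, 2381, 2418, 2451, 2476, 2506, 2516, 2529, 2589, 2606, 2611, 2650, 2661, 2710, 2729, 2755, 2764, 2800, 2827, 2868, 2886, 2897, 2920, 2949, 2968, 2978, 3099, 3117, 3126, 3150, 3185, 3228, 3235, 3269, 3282, 3304, 3349, 3370, 3395, 3416, 3428, 3462, 3465, 3504, 3591, 3640, 3657, 3668, 3682, 3722, 3729, 3748, 3852, 3858, 3873, 4032]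

/-- The masks of the hexads, each with the number of a message whose word has that support. -/
def hexWit : List (ℕ × ℕ) := [(63, 134), (222, 393), (237, 551), (243, 410), (347, 626), (366, 528), (373, 335), (413, 200), (427, 32), (438, 177), (455, 269), (504, 459), (591, 284), (630, 429), (633, 677), (667, 224), (679, 17), (700, 234), (725, 587), (746, 276), (791, 185), (813, 74), (826, 141), (860, 369), (867, 494), (910, 51), (945, 83), (969, 299), (978, 654), (996, 504), (1117, 479), (1127, 509), (1146, 708), (1175, 95), (1198, 78), (1209, 137), (1227, 521), (1268, 342), (1295, 71), (1331, 170), (1340, 207), (1366, 591), (1385, 272), (1434, 114), (1445, 20), (1484, 558), (1489, 650), (1506, 249), (1566, 204), (1579, 59), (1589, 173), (1619, 332), (1644, 531), (1677, 47), (1714, 87), (1734, 501), (1752, 621), (1761, 245), (1817, 110), (1830, 24), (1861, 497), (1866, 303), (1904, 405), (1923, 5), (1940, 180), (1960, 54), (2135, 665), (2155, 305), (2172, 639), (2191, 77), (2229,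 182), (2234, 195), (2265, 353), (2278, 510), (2334, 240), (2343, 14), (2361, 218), (2381, 533), (2418, 330), (2451, 89), (2476, 45), (2506, 546), (2516, 423), (2529, 488), (2589, 146), (2606, 69), (2611, 86), (2650, 600), (2661, 263), (2710, 105), (2729, 29), (2755, 491), (2764, 315), (2800, 648), (2827, 35), (2868, 99), (2886, 258), (2897, 407), (2920, 540), (2949, 11), (2968, 135), (2978, 6), (3099, 194), (3117, 38), (3126, 96), (3150, 294), (3185, 569), (3228, 126), (3235, 8), (3269, 254), (3282, 411), (3304, 297), (3349, 101), (3370, 33), (3395, 248), (3416, 378), (3428, 261), (3462, 15), (3465, 56), (3504, 162), (3591, 26), (3640, 216), (3657, 542), (3668, 666), (3682, 492), (3722, 60), (3729, 164), (3748, 18), (3852, 72), (3858, 168), (3873, 2), (4032, 486)]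

/-- The message with a given number (base-3 digits). -/
def msgOf (n : ℕ) : Msg :=
  ((n : ZMod 3), ((n / 3 : ℕ) : ZMod 3), ((n / 9 : ℕ) : ZMod 3), ((n / 27 : ℕ) : ZMod 3),
    ((n / 81 : ℕ) : ZMod 3), ((n / 243 : ℕ) : ZMod 3))

theorem hexWit_fst : hexWit.map Prod.fst = hexList := by decide +kernel

theorem hexWit_spec : ∀ w ∈ hexWit, toMask idx (ternarySupport (enc (msgOf w.2))) = w.1 ∧
    (ternarySupport (enc (msgOf w.2))).card = 6 := by
  decide +kernel

theorem hexList_complete : ∀ t : Msg, (ternarySupport (enc t)).card = 6 →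
    toMask idx (ternarySupport (enc t)) ∈ hexList := by
  decide +kernel

theorem mem_hexads_iff (h : Finset ArrayPt) : h ∈ hexads ↔ toMask idx h ∈ hexList := by
  constructor
  · rintro ⟨x, hx, rfl, h6⟩
    obtain ⟨t, rfl⟩ := (mem_code_iff x).mp hx
    exact hexList_complete t h6
  · intro hm
    rw [← hexWit_fst, List.mem_map] at hm
    obtain ⟨w, hw, e⟩ := hm
    obtain ⟨h1, h2⟩ := hexWit_spec w hw
    have : ternarySupport (enc (msgOf w.2)) = h := toMask_injective idx_injective (h1.trans e)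
    exact ⟨_, enc_mem _, this, this ▸ h2⟩

theorem hexList_nodup : hexList.Nodup := by decide +kernel

theorem hexList_spec : ∀ m ∈ hexList, toMask idx (ofMask idx m) = m := by decide +kernel

theorem ncard_hexads : hexads.ncard = 132 := by
  rw [← Set.ncard_image_of_injective _ (toMask_injective idx_injective)]
  have : toMask idx '' hexads = (hexList.toFinset : Set ℕ) := by
    ext m
    simp only [Set.mem_image, mem_hexads_iff, List.coe_toFinset, Set.mem_ofPred_eq]
    constructor
    · rintro ⟨h, hh, rfl⟩; exact hh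
    · intro hm; exact ⟨ofMask idx m, by rwa [hexList_spec m hm], hexList_spec m hm⟩
  rw [this, Set.ncard_coe_finset, List.toFinset_card_of_nodup hexList_nodup]
  rfl

/-- Number of set digits among the lowest twelve. -/
def pop12 (m : ℕ) : ℕ :=
  (m.testBit 0).toNat + (m.testBit 1).toNat + (m.testBit 2).toNat + ((m.testBit 3).toNat +
  (m.testBit 4).toNat + (m.testBit 5).toNat) + ((m.testBit 6).toNat + (m.testBit 7).toNat +
  (m.testBit 8).toNat) + ((m.testBit 9).toNat + (m.testBit 10).toNat + (m.testBit 11).toNat)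

theorem card_ofMask (m : ℕ) : (ofMask idx m).card = pop12 m := by
  have h3 : ∀ f : ZMod 3 → ℕ, ∑ r, f r = f 0 + f 1 + f 2 := fun f => Fin.sum_univ_three f
  have hb : ∀ b : Bool, (if b = true then 1 else 0) = b.toNat := by decide
  rw [ofMask, Finset.card_filter, Fintype.sum_prod_type, Fin.sum_univ_four, h3, h3, h3, h3]
  simp only [hb]
  rfl

theorem steiner_aux : ∀ m < 2 ^ 12, pop12 m = 5 →
    (hexList.filter fun h => m &&& h == m).length = 1 ∧ toMask idx (ofMask idx m) = m :=
  forall_lt_pow_of_allPow 12 (by decide +kernel)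

theorem steiner : IsSteinerSystem 5 6 hexads := by
  refine ⟨fun b hb => ?_, ?_⟩
  · obtain ⟨x, -, -, h⟩ := hb; exact h
  · refine forall_of_forall_mask idx_injective idx_lt
      (P := fun s => s.card = 5 → ∃! b, b ∈ hexads ∧ s ⊆ b) ?_
    intro m hm h5
    obtain ⟨h1, h2⟩ := steiner_aux m hm (card_ofMask m ▸ h5)
    obtain ⟨h, hh⟩ := List.length_eq_one_iff.mp h1
    have hmem : ∀ k, (k ∈ hexList ∧ m &&& k = m) ↔ k = h := by
      intro k
      have : k ∈ (hexList.filter fun h => m &&& h == m) ↔ k = h := by rw [hh]; simp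
      simpa using this
    obtain ⟨a1, a2⟩ := (hmem h).mpr rfl
    refine ⟨ofMask idx h, ⟨?_, ofMask_subset_of_land idx a2⟩, ?_⟩
    · rw [mem_hexads_iff, hexList_spec h a1]; exact a1
    · rintro b ⟨hb1, hb2⟩
      have := toMask_land_of_subset idx_injective hb2
      rw [h2] at this
      rw [← (hmem _).mp ⟨(mem_hexads_iff b).mp hb1, this⟩, ofMask_toMask idx_injective]

end CfsgLib.TGolay
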