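import Mathlib
import Cfsg.Agent.Lib.TGolay.Code
import Cfsg.Agent.Lib.Steiner.Aut

/-!
Monomial automorphisms of the ternary code of length 12.
-/

set_option autoImplicit false

namespace CfsgLib.TGolay

open Cfsg

/-- The monomial map given by `σ` and `c` preserves the code. -/
def Pres (σ : Equiv.Perm ArrayPt) (c : ArrayPt → (ZMod 3)ˣ) : Prop :=
  ∀ x ∈ ternaryGolayCode, monomialMap σ c x ∈ ternaryGolayCode

theorem units_cases (u : (ZMod 3)ˣ) : u = 1 ∨ u = -1 := by
  revert u; decide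

theorem pres_one_iff_aux {c : ArrayPt → (ZMod 3)ˣ} (h : Pres 1 c) (p : ArrayPt) :
    c p = c (0, 0) := by
  have key : ∀ (j : Fin 6) (p : ArrayPt),
      enc (dec (monomialMap 1 c (bas j))) p = monomialMap 1 c (bas j) p :=
    fun j p => congrFun (enc_dec (h _ (bas_mem j))) p
  have e : ∀ p, (c p : ZMod 3) = c (0, 0) := by
    have a0 : ((c (0, 0) : ZMod 3) * 1) + ((c (0, 1) : ZMod 3) * 0) + ((c (0, 2) : ZMod 3) * 0) + 2 * ((c (1, 0) : ZMod 3) * 0) + 2 * ((c (1, 1) : ZMod 3) * 0) = (c (1, 2) : ZMod 3) * bas 0 (1, 2) := key 0 (1, 2)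
    rw [show bas 0 (1, 2) = 1 by decide] at a0
    have a1 : ((c (0, 0) : ZMod 3) * 1) + 2 * ((c (0, 1) : ZMod 3) * 0) + ((c (1, 0) : ZMod 3) * 0) + 2 * ((c (1, 1) : ZMod 3) * 0) + ((c (2, 0) : ZMod 3) * 0) = (c (2, 2) : ZMod 3) * bas 0 (2, 2) := key 0 (2, 2)
    rw [show bas 0 (2, 2) = 1 by decide] at a1
    have a2 : ((c (0, 0) : ZMod 3) * 1) + 2 * ((c (0, 1) : ZMod 3) * 0) + 2 * ((c (0, 2) : ZMod 3) * 0) + 2 * ((c (1, 0) : ZMod 3) * 0) + 2 * ((c (2, 0) : ZMod 3) * 0) = (c (3, 0) : ZMod 3) * bas 0 (3, 0) := key 0 (3, 0)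
    rw [show bas 0 (3, 0) = 1 by decide] at a2
    have a3 : ((c (0, 0) : ZMod 3) * 1) + ((c (0, 2) : ZMod 3) * 0) + ((c (1, 0) : ZMod 3) * 0) + ((c (1, 1) : ZMod 3) * 0) + 2 * ((c (2, 0) : ZMod 3) * 0) = (c (3, 1) : ZMod 3) * bas 0 (3, 1) := key 0 (3, 1)
    rw [show bas 0 (3, 1) = 1 by decide] at a3
    have a4 : 2 * ((c (0, 0) : ZMod 3) * 1) + 2 * ((c (0, 1) : ZMod 3) * 0) + ((c (0, 2) : ZMod 3) * 0) + 2 * ((c (1, 1) : ZMod 3) * 0) + 2 * ((c (2, 0) : ZMod 3) * 0) = (c (3, 2) : ZMod 3) * bas 0 (3, 2) := key 0 (3, 2)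
    rw [show bas 0 (3, 2) = 2 by decide] at a4
    have a5 : ((c (0, 0) : ZMod 3) * 0) + ((c (0, 1) : ZMod 3) * 1) + ((c (0, 2) : ZMod 3) * 0) + 2 * ((c (1, 0) : ZMod 3) * 0) + 2 * ((c (1, 1) : ZMod 3) * 0) = (c (1, 2) : ZMod 3) * bas 1 (1, 2) := key 1 (1, 2)
    rw [show bas 1 (1, 2) = 1 by decide] at a5
    have a6 : 2 * ((c (0, 1) : ZMod 3) * 1) + ((c (0, 2) : ZMod 3) * 0) + 2 * ((c (1, 0) : ZMod 3) * 0) + ((c (1, 1) : ZMod 3) * 0) + ((c (2, 0) : ZMod 3) * 0) = (c (2, 1) : ZMod 3) * bas 1 (2, 1) := key 1 (2, 1)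
    rw [show bas 1 (2, 1) = 2 by decide] at a6
    have a7 : ((c (0, 0) : ZMod 3) * 0) + ((c (0, 1) : ZMod 3) * 0) + ((c (0, 2) : ZMod 3) * 1) + 2 * ((c (1, 0) : ZMod 3) * 0) + 2 * ((c (1, 1) : ZMod 3) * 0) = (c (1, 2) : ZMod 3) * bas 2 (1, 2) := key 2 (1, 2)
    rw [show bas 2 (1, 2) = 1 by decide] at a7
    have a8 : ((c (0, 0) : ZMod 3) * 0) + ((c (0, 1) : ZMod 3) * 0) + ((c (0, 2) : ZMod 3) * 0) + 2 * ((c (1, 0) : ZMod 3) * 1) + 2 * ((c (1, 1) : ZMod 3) * 0) = (c (1, 2) : ZMod 3) * bas 3 (1, 2) := key 3 (1, 2)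
    rw [show bas 3 (1, 2) = 2 by decide] at a8
    have a9 : ((c (0, 0) : ZMod 3) * 0) + ((c (0, 1) : ZMod 3) * 0) + ((c (0, 2) : ZMod 3) * 0) + 2 * ((c (1, 0) : ZMod 3) * 0) + 2 * ((c (1, 1) : ZMod 3) * 1) = (c (1, 2) : ZMod 3) * bas 4 (1, 2) := key 4 (1, 2)
    rw [show bas 4 (1, 2) = 2 by decide] at a9
    have a10 : 2 * ((c (0, 1) : ZMod 3) * 0) + ((c (0, 2) : ZMod 3) * 0) + 2 * ((c (1, 0) : ZMod 3) * 0) + ((c (1, 1) : ZMod 3) * 0) + ((c (2, 0) : ZMod 3) * 1) = (c (2, 1) : ZMod 3) * bas 5 (2, 1) := key 5 (2, 1)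
    rw [show bas 5 (2, 1) = 1 by decide] at a10
    have b1 : (c (0, 1) : ZMod 3) = c (0, 0) := by grind
    have b2 : (c (0, 2) : ZMod 3) = c (0, 0) := by grind
    have b3 : (c (1, 0) : ZMod 3) = c (0, 0) := by grind
    have b4 : (c (1, 1) : ZMod 3) = c (0, 0) := by grind
    have b5 : (c (1, 2) : ZMod 3) = c (0, 0) := by grind
    have b6 : (c (2, 0) : ZMod 3) = c (0, 0) := by grind
    have b7 : (c (2, 1) : ZMod 3) = c (0, 0) := by grind
    have b8 : (c (2, 2) : ZMod 3) = c (0, 0) := by grind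
    have b9 : (c (3, 0) : ZMod 3) = c (0, 0) := by grind
    have b10 : (c (3, 1) : ZMod 3) = c (0, 0) := by grind
    have b11 : (c (3, 2) : ZMod 3) = c (0, 0) := by grind
    rintro ⟨i, r⟩
    fin_cases i <;> fin_cases r
    exacts [rfl, b1, b2, b3, b4, b5, b6, b7, b8, b9, b10, b11]
  exact Units.ext (e p)

theorem pres_one {c : ArrayPt → (ZMod 3)ˣ} (h : Pres 1 c) : (∀ p, c p = 1) ∨ (∀ p, c p = -1) := by
  rcases units_cases (c (0, 0)) with h1 | h1
  · left; intro p; rw [← h1]; exact pres_one_iff_aux h p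
  · right; intro p; rw [← h1]; exact pres_one_iff_aux h p

theorem pres_of_bas {σ : Equiv.Perm ArrayPt} {c : ArrayPt → (ZMod 3)ˣ}
    (h : ∀ j, monomialMap σ c (bas j) ∈ ternaryGolayCode) : Pres σ c := by
  intro x hx
  obtain ⟨⟨a, b, c', d, e, f⟩, rfl⟩ := (mem_code_iff x).mp hx
  have : monomialMap σ c (enc (a, b, c', d, e, f)) =
      a • monomialMap σ c (bas 0) + b • monomialMap σ c (bas 1) + c' • monomialMap σ c (bas 2) +
      d • monomialMap σ c (bas 3) + e • monomialMap σ c (bas 4) + f • monomialMap σ c (bas 5) := by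
    rw [enc_eq_sum]
    funext i
    simp only [monomialMap, Pi.add_apply, Pi.smul_apply, smul_eq_mul]
    ring
  rw [this]
  refine add_mem (add_mem (add_mem (add_mem (add_mem ?_ ?_) ?_) ?_) ?_) ?_ <;>
    exact Submodule.smul_mem _ _ (h _)

theorem Pres.mul {σ τ : Equiv.Perm ArrayPt} {c d : ArrayPt → (ZMod 3)ˣ} (h : Pres σ c)
    (h' : Pres τ d) : Pres (σ * τ) (fun i => c i * d (σ.symm i)) := by
  intro x hx
  have : monomialMap (σ * τ) (fun i => c i * d (σ.symm i)) x =
      monomialMap σ c (monomialMap τ d x) := by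
    funext i
    simp only [monomialMap, Units.val_mul, mul_assoc]
    rfl
  rw [this]
  exact h _ (h' _ hx)

theorem Pres.smul {σ : Equiv.Perm ArrayPt} {c : ArrayPt → (ZMod 3)ˣ} (h : Pres σ c)
    (u : (ZMod 3)ˣ) : Pres σ (fun i => u * c i) := by
  intro x hx
  have : monomialMap σ (fun i => u * c i) x = (u : ZMod 3) • monomialMap σ c x := by
    funext i
    simp only [monomialMap, Units.val_mul, mul_assoc, Pi.smul_apply, smul_eq_mul]
  rw [this]
  exact Submodule.smul_mem _ _ (h _ hx)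

theorem pres_id : Pres 1 (fun _ => 1) := by
  intro x hx
  have : monomialMap 1 (fun _ => 1) x = x := by
    funext i
    simp only [monomialMap, Units.val_one, one_mul]
    rfl
  rwa [this]

theorem Pres.unique {σ : Equiv.Perm ArrayPt} {c d : ArrayPt → (ZMod 3)ˣ} (h : Pres σ c)
    (h' : Pres σ d) : ∃ u : (ZMod 3)ˣ, d = fun i => u * c i := by
  have hinj : Function.Injective
      (fun x : ternaryGolayCode => (⟨monomialMap σ c x, h _ x.2⟩ : ternaryGolayCode)) := by
    intro x y hxy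
    apply Subtype.ext
    funext i
    have := congrFun (congrArg Subtype.val hxy) (σ i)
    simpa [monomialMap] using this
  have hsurj := Finite.surjective_of_injective hinj
  have : Pres 1 (fun i => d i * (c i)⁻¹) := by
    intro y hy
    obtain ⟨x, hx⟩ := hsurj ⟨y, hy⟩
    have hx' : monomialMap σ c x = y := congrArg Subtype.val hx
    have : monomialMap 1 (fun i => d i * (c i)⁻¹) y = monomialMap σ d x := by
      funext i
      rw [← hx']
      simp only [monomialMap, Units.val_mul]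
      change _ * ((c i : ZMod 3) * _) = _
      rw [mul_assoc, ← mul_assoc ((c i)⁻¹ : (ZMod 3)ˣ).val, Units.inv_mul, one_mul]
      rfl
    rw [this]
    exact h' _ x.2
  refine ⟨d (0, 0) * (c (0, 0))⁻¹, funext fun i => ?_⟩
  rw [← pres_one_iff_aux this i, inv_mul_cancel_right]

theorem support_monomialMap (σ : Equiv.Perm ArrayPt) (c : ArrayPt → (ZMod 3)ˣ)
    (x : ArrayPt → ZMod 3) : ternarySupport (monomialMap σ c x) = (ternarySupport x).image σ := by
  ext i
  simp only [ternarySupport, monomialMap, Finset.mem_filter, Finset.mem_univ, true_and,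
    Finset.mem_image, ne_eq, Units.mul_right_eq_zero]
  constructor
  · intro h; exact ⟨_, h, σ.apply_symm_apply i⟩
  · rintro ⟨j, hj, rfl⟩; rwa [σ.symm_apply_apply]

theorem Pres.mem_aut {σ : Equiv.Perm ArrayPt} {c : ArrayPt → (ZMod 3)ˣ} (h : Pres σ c) :
    σ ∈ setSystemAut hexads := by
  apply CfsgLib.Steiner.mem_aut_of_image
  rintro b ⟨x, hx, rfl, h6⟩
  refine ⟨_, h x hx, support_monomialMap σ c x, ?_⟩
  rwa [Finset.card_image_of_injective _ σ.injective]

/-- The position with a given number. -/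
def ptOf (n : ℕ) : ArrayPt := (Fin.ofNat 4 (n / 3), (n : ZMod 3))

/-- The map of positions coded by a number. -/
def fOf (m : ℕ) (p : ArrayPt) : ArrayPt := ptOf ((m >>> (4 * idx p)) % 16)

/-- The signs coded by a number. -/
def cOf (m : ℕ) (p : ArrayPt) : (ZMod 3)ˣ := if m.testBit (48 + idx p) then -1 else 1

/-- Transversals of a stabiliser chain. -/
def tbl : List (List ℕ) := [[205163983024656, 114875801285121, 171143312191746, 177533222556803331, 177478470783410436, 177517768978145541, 178658163800875270, 179129451721990407, 175738674579972360, 178589874069381385, 175717993303712010, 179181185102192907], [0, 205163983024656, 148896472117536, 525415347500884272, 525349506407145792, 525399893922226512, 524202376263049568, 629564437806915952, 626128687827460480, 524189258825802128, 626199869106889120, 629526088358502832], [0, 0, 205163983024656, 778164761993159440, 778132653924885520, 778198774358156560, 776460497717503504, 376706335644002064, 373964070747056144,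 776493204980836624, 373914541383428624, 376690039762135824], [0, 0, 0, 205163983024656, 147865428247056, 186605193351696, 1888455371219472, 1151349566066618896, 1151891909487329808, 1817116296843792, 1151878521015214608, 1151400079659348496], [0, 0, 0, 0, 205163983024656, 132399770186256, 1872792665862672, 1151313496142983696, 1151906335796245008, 1842058397037072, 1151959931952968208, 1151327939812078096]]

theorem tbl_spec : ∀ k : Fin 5, ∀ y : ArrayPt, k ≤ idx y →
    (fun m => Function.Injective (fOf m) ∧ (∀ i < k.val, fOf m (ptOf i) = ptOf i) ∧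
      fOf m (ptOf k) = y ∧ ∀ j : Fin 6, ∀ p, enc (dec fun i => cOf m i * bas j (fOf m i)) p =
        cOf m p * bas j (fOf m p)) ((tbl.getD k []).getD (idx y) 0) := by
  decide +kernel

theorem exists_step (k : Fin 5) (y : ArrayPt) (hy : k ≤ idx y) :
    ∃ σ c, Pres σ c ∧ (∀ i < k.val, σ.symm (ptOf i) = ptOf i) ∧ σ.symm (ptOf k) = y := by
  obtain ⟨h1, h2, h3, h4⟩ := tbl_spec k y hy
  generalize (tbl.getD k []).getD (idx y) 0 = m at h1 h2 h3 h4
  refine ⟨(Equiv.ofBijective (fOf m) (Finite.injective_iff_bijective.mp h1)).symm, cOf m, ?_, h2, h3⟩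
  apply pres_of_bas
  intro j
  rw [mem_code_iff]
  exact ⟨_, funext (h4 j)⟩

theorem ptOf_idx (p : ArrayPt) : ptOf (idx p) = p := by revert p; decide

theorem idx_ptOf : ∀ n < 12, idx (ptOf n) = n := by decide

theorem sharp_hexads : CfsgLib.Sharp.IsSharp (setSystemAut hexads) ArrayPt 5 :=
  CfsgLib.Steiner.sharp12 (by decide) steiner

theorem exists_pres_aux (k : ℕ) (hk : k ≤ 5) : ∀ g ∈ setSystemAut hexads,
    (∀ i < 5 - k, g (ptOf i) = ptOf i) → ∃ c, Pres g c := by
  induction k with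
  | zero =>
    intro g hg h
    have : (⟨g, hg⟩ : setSystemAut hexads) = 1 :=
      sharp_hexads.eq_one ⟨fun i : Fin 5 => ptOf i, by decide⟩ fun i => h i i.2
    have : g = 1 := congrArg Subtype.val this
    exact ⟨_, this ▸ pres_id⟩
  | succ k ih =>
    intro g hg h
    have hlt : 4 - k < 5 := by omega
    have hy : ((⟨4 - k, hlt⟩ : Fin 5) : ℕ) ≤ idx (g.symm (ptOf (4 - k))) := by
      by_contra hc
      have h1 : idx (g.symm (ptOf (4 - k))) < 4 - k := not_le.mp hc
      have h2 := h _ (show idx (g.symm (ptOf (4 - k))) < 5 - (k + 1) by omega)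
      rw [ptOf_idx, g.apply_symm_apply] at h2
      rw [← h2, idx_ptOf _ (by omega)] at h1
      omega
    obtain ⟨σ, c, h1, h2, h3⟩ := exists_step ⟨4 - k, hlt⟩ _ hy
    obtain ⟨d, hd⟩ := ih (by omega) (g * σ⁻¹) (mul_mem hg (inv_mem h1.mem_aut)) (by
      intro i hi
      change g (σ.symm (ptOf i)) = _
      by_cases hik : i = 4 - k
      · rw [hik, h3, g.apply_symm_apply]
      · rw [h2 i (by simp only; omega), h i (by omega)])
    have := hd.mul h1
    rw [inv_mul_cancel_right] at this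
    exact ⟨_, this⟩

theorem exists_pres {g : Equiv.Perm ArrayPt} (hg : g ∈ setSystemAut hexads) : ∃ c, Pres g c :=
  exists_pres_aux 5 le_rfl g hg (by simp)

theorem card_aut_hexads : Nat.card (setSystemAut hexads) = 95040 := by
  rw [sharp_hexads.card (by decide)]
  decide

theorem card_pres :
    Nat.card {f : Equiv.Perm ArrayPt × (ArrayPt → (ZMod 3)ˣ) // Pres f.1 f.2} = 190080 := by
  have hc : ∀ g : setSystemAut hexads, ∃ c, Pres g c := fun g => exists_pres g.2
  choose c hc using hc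
  let F : setSystemAut hexads × (ZMod 3)ˣ →
      {f : Equiv.Perm ArrayPt × (ArrayPt → (ZMod 3)ˣ) // Pres f.1 f.2} :=
    fun z => ⟨(z.1, fun i => z.2 * c z.1 i), (hc z.1).smul z.2⟩
  have hF : Function.Bijective F := by
    constructor
    · rintro ⟨g, u⟩ ⟨g', u'⟩ h
      have h := congrArg Subtype.val h
      simp only [F, Prod.mk.injEq] at h
      obtain rfl : g = g' := Subtype.ext h.1
      have := congrFun h.2 (0, 0)
      rw [mul_left_inj] at this
      rw [this]
    · rintro ⟨⟨g, d⟩, h⟩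
      obtain ⟨u, hu⟩ := (hc ⟨g, h.mem_aut⟩).unique h
      refine ⟨(⟨g, h.mem_aut⟩, u), Subtype.ext ?_⟩
      simp only [F, Prod.mk.injEq, true_and]
      exact hu.symm
  rw [← Nat.card_congr (Equiv.ofBijective F hF), Nat.card_prod, card_aut_hexads,
    Nat.card_eq_fintype_card]
  decide

end CfsgLib.TGolay
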